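import Cfsg.Agent.Char.Linear
import Cfsg.Agent.Char.Kernel
import Cfsg.Agent.Char.Orthogonality

/-!
# Linear characters of a finite abelian group as a basis
-/

noncomputable section

namespace Cfsg.Agent.SingerTI

open scoped ComplexConjugate BigOperators
open Finset

universe u

variable {A : Type u} [Group A] [Fintype A]

/-- A homomorphism to `ℂˣ` as a complex function. -/
def linFun (f : A →* ℂˣ) : A → ℂ := fun a => (f a : ℂ)

theorem linFun_isIrr (f : A →* ℂˣ) : Cfsg.IsIrrCharacter A (linFun f) :=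
  Cfsg.Agent.Char.isIrrCharacter_monoidHom f

theorem linFun_injective : Function.Injective (linFun (A := A)) := fun f g h => by
  ext a
  exact congrFun h a

theorem linFun_one_apply (f : A →* ℂˣ) : linFun f 1 = 1 := by simp [linFun]

theorem linFun_one : linFun (1 : A →* ℂˣ) = fun _ => 1 := by funext a; simp [linFun]

theorem classInner_linFun (f g : A →* ℂˣ) [Decidable (f = g)] :
    Cfsg.classInner (linFun f) (linFun g) = if f = g then 1 else 0 := by
  by_cases h : f = g
  · rw [if_pos h, h, Cfsg.Agent.Char.classInner_irr_self (linFun_isIrr g)]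
  · rw [if_neg h, Cfsg.Agent.Char.classInner_irr_ne (linFun_isIrr f) (linFun_isIrr g)
      (fun e => h (linFun_injective e))]

/-- The finitely many linear characters. -/
@[reducible] def homFintype : Fintype (A →* ℂˣ) :=
  have := Cfsg.Agent.Char.monoidHom_complex_finite (G := A)
  Fintype.ofFinite _

variable [Fintype (A →* ℂˣ)]

theorem sum_hom_eq_zero (hA : ∀ a b : A, a * b = b * a) {a : A} (ha : a ≠ 1) :
    ∑ f : A →* ℂˣ, (f a : ℂ) = 0 := by
  obtain ⟨χ, hχ⟩ := Cfsg.Agent.Char.exists_irr_ne_degree ha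
  obtain ⟨g, hg⟩ := Cfsg.Agent.Char.irr_exists_monoidHom_of_comm hA χ.2
  have hga : (g a : ℂ) ≠ 1 := fun h => hχ (by rw [hg a, hg 1, h, map_one, Units.val_one])
  have e : ∑ f : A →* ℂˣ, ((g * f) a : ℂ) = ∑ f : A →* ℂˣ, (f a : ℂ) :=
    Fintype.sum_equiv (Equiv.mulLeft g) _ _ fun f => rfl
  simp only [MonoidHom.mul_apply, Units.val_mul, ← Finset.mul_sum] at e
  by_contra h
  exact hga (mul_right_cancel₀ h (e.trans (one_mul _).symm))

theorem card_hom (hA : ∀ a b : A, a * b = b * a) :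
    (Fintype.card (A →* ℂˣ) : ℂ) = (Nat.card A : ℂ) := by
  classical
  have h1 : ∑ a : A, ∑ f : A →* ℂˣ, (f a : ℂ) = (Fintype.card (A →* ℂˣ) : ℂ) := by
    rw [Finset.sum_eq_single (1 : A) (fun a _ ha => sum_hom_eq_zero hA ha)
      (fun h => absurd (Finset.mem_univ _) h)]
    simp
  have h2 : ∑ f : A →* ℂˣ, ∑ a : A, (f a : ℂ) = (Nat.card A : ℂ) := by
    rw [Finset.sum_eq_single (1 : A →* ℂˣ)
      (fun f _ hf => Cfsg.Agent.Char.monoidHom_sum_eq_zero hf)
      (fun h => absurd (Finset.mem_univ _) h)]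
    simp
  rw [← h1, Finset.sum_comm, h2]

/-- Every function is expanded in linear characters. -/
theorem expansion (hA : ∀ a b : A, a * b = b * a) (φ : A → ℂ) (a : A) :
    ∑ f : A →* ℂˣ, Cfsg.classInner φ (linFun f) * (f a : ℂ) = φ a := by
  classical
  have hconj : ∀ (f : A →* ℂˣ) (b : A), conj (f b : ℂ) = (f b⁻¹ : ℂ) := fun f b =>
    (Cfsg.Agent.Char.irr_inv (linFun_isIrr f) b).symm
  have key : ∀ b : A, ∑ f : A →* ℂˣ, φ b * conj (f b : ℂ) * (f a : ℂ) =
      if b = a then φ b * (Nat.card A : ℂ) else 0 := by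
    intro b
    have : ∀ f : A →* ℂˣ, φ b * conj (f b : ℂ) * (f a : ℂ) = φ b * (f (b⁻¹ * a) : ℂ) := fun f => by
      rw [hconj, map_mul, Units.val_mul, mul_assoc]
    rw [Finset.sum_congr rfl fun f _ => this f, ← Finset.mul_sum]
    split_ifs with h
    · subst h; simp [card_hom hA]
    · rw [sum_hom_eq_zero hA (fun e => h (inv_mul_eq_one.1 e)), mul_zero]
  calc ∑ f : A →* ℂˣ, Cfsg.classInner φ (linFun f) * (f a : ℂ)
      = (Nat.card A : ℂ)⁻¹ * ∑ f : A →* ℂˣ, ∑ b : A, φ b * conj (f b : ℂ) * (f a : ℂ) := by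
        simp only [Cfsg.classInner, linFun, Finset.mul_sum, Finset.sum_mul, mul_assoc]
    _ = φ a := by
        rw [Finset.sum_comm, Finset.sum_congr rfl fun b _ => key b, Finset.sum_ite_eq',
          if_pos (Finset.mem_univ _), mul_comm, mul_assoc, mul_inv_cancel₀
            (Nat.cast_ne_zero.2 Nat.card_pos.ne'), mul_one]

theorem expansion_one (hA : ∀ a b : A, a * b = b * a) (φ : A → ℂ) :
    ∑ f : A →* ℂˣ, Cfsg.classInner φ (linFun f) = φ 1 := by
  simpa using expansion hA φ 1

theorem parseval (hA : ∀ a b : A, a * b = b * a) (φ : A → ℂ) :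
    Cfsg.classInner φ φ =
      ∑ f : A →* ℂˣ, Cfsg.classInner φ (linFun f) * conj (Cfsg.classInner φ (linFun f)) := by
  have h : φ = ∑ f : A →* ℂˣ, Cfsg.classInner φ (linFun f) • linFun f := by
    funext a
    simpa [linFun, Finset.sum_apply] using (expansion hA φ a).symm
  conv_lhs => arg 2; rw [h]
  rw [Cfsg.Agent.Char.classInner_sum_right]
  exact Finset.sum_congr rfl fun f _ => by
    rw [Cfsg.Agent.Char.classInner_smul_right, mul_comm]

end Cfsg.Agent.SingerTI
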